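import Mathlib
import Cfsg.Agent.Lib.Helper69.BG40.Defs
import Cfsg.Agent.Lib.Helper10.ElemAb
import Cfsg.Agent.Lib.Helper53.PGroups
import Cfsg.Agent.Lib.Helper67.BG.Basics

/-!
# S1440 project (helper69), package PKG1

`P` non-abelian Sylow part of `M_σ`: there is `z ∈ Z(P) ∩ P'` of order `p` with `⟨z⟩` normal in `M`,
and `x ∈ P` is not central in `P`.
-/

set_option autoImplicit false

namespace Cfsg.Agent.Lib.Helper29.BG40

open Cfsg Cfsg.Agent.Lib.Helper69.BG40

universe u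

variable {G : Type u} [Group G] [Finite G]

/-- In `H = P × Q` (with `P` normalized by `H`), every element of order `p` of `H` lies in `P`. -/
theorem mem_of_dec_of_orderOf {p : ℕ} [Fact p.Prime] {H P Q : Subgroup G} (hd : Dec p H P Q)
    (hn : H ≤ Subgroup.normalizer (P : Set G)) {y : G} (hy : y ∈ H) (hyo : orderOf y = p) :
    y ∈ P := by
  have hzy : IsPGroup p ↥(Subgroup.zpowers y) := by
    apply IsPGroup.of_card (n := 1)
    rw [Nat.card_zpowers, hyo, pow_one]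
  have hyn : Subgroup.zpowers y ≤ Subgroup.normalizer (P : Set G) :=
    (Subgroup.zpowers_le.mpr (hn hy))
  have hsup : IsPGroup p ↥(Subgroup.zpowers y ⊔ P) :=
    IsPGroup.to_sup_of_normal_right' hzy hd.hPp hyn
  have hSH : Subgroup.zpowers y ⊔ P ≤ H := sup_le (Subgroup.zpowers_le.mpr hy) hd.hP
  obtain ⟨k, hk⟩ := IsPGroup.iff_card.mp hsup
  obtain ⟨j, hj⟩ := IsPGroup.iff_card.mp hd.hPp
  have h1 : Nat.card ↥(Subgroup.zpowers y ⊔ P) ∣ Nat.card ↥H := Subgroup.card_dvd_of_le hSH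
  rw [← hd.hcard, hk, hj] at h1
  have hcop : (p ^ k).Coprime (Nat.card ↥Q) := Nat.Coprime.pow_left k hd.hQp.symm
  have h2 : p ^ k ∣ p ^ j := hcop.dvd_of_dvd_mul_right h1
  have h3 : Nat.card ↥(Subgroup.zpowers y ⊔ P) ≤ Nat.card ↥P := by
    rw [hk, hj]
    exact Nat.le_of_dvd (pow_pos (Fact.out : p.Prime).pos j) h2
  have h4 : P = Subgroup.zpowers y ⊔ P := Subgroup.eq_of_le_of_card_ge le_sup_right h3
  rw [h4]
  exact le_sup_left (a := Subgroup.zpowers y) (Subgroup.mem_zpowers y)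

/-- `Ω₁(Z(P))` as a subgroup of the ambient group. -/
def omegaZP (p : ℕ) (P : Subgroup G) : Subgroup G where
  carrier := {a | a ∈ P ∧ (∀ b ∈ P, b * a = a * b) ∧ a ^ p = 1}
  one_mem' := ⟨P.one_mem, fun b _ => by rw [mul_one, one_mul], one_pow p⟩
  mul_mem' := by
    rintro a b ⟨ha, hac, hap⟩ ⟨hb, hbc, hbp⟩
    refine ⟨P.mul_mem ha hb, fun c hc => ?_, ?_⟩
    · rw [← mul_assoc, hac c hc, mul_assoc, hbc c hc, ← mul_assoc]
    · have hcom : Commute a b := (hbc a ha)
      rw [hcom.mul_pow, hap, hbp, one_mul]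
  inv_mem' := by
    rintro a ⟨ha, hac, hap⟩
    refine ⟨P.inv_mem ha, fun c hc => ?_, by rw [inv_pow, hap, inv_one]⟩
    have h := hac c hc
    calc c * a⁻¹ = a⁻¹ * (a * c) * a⁻¹ := by group
      _ = a⁻¹ * (c * a) * a⁻¹ := by rw [h]
      _ = a⁻¹ * c := by group

theorem mem_omegaZP {p : ℕ} {P : Subgroup G} {a : G} :
    a ∈ omegaZP p P ↔ a ∈ P ∧ (∀ b ∈ P, b * a = a * b) ∧ a ^ p = 1 := Iff.rfl

theorem omegaZP_isElementaryAbelian (p : ℕ) (P : Subgroup G) :
    IsElementaryAbelian p (omegaZP p P) := by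
  rw [Cfsg.Agent.Lib.Helper10.isElementaryAbelian_iff]
  exact ⟨fun a ha b hb => (ha.2.1 b hb.1).symm, fun a ha => ha.2.2⟩

/-- `Ω₁(Z(P))` is normalized by everything normalizing `P`. -/
theorem le_normalizer_omegaZP {p : ℕ} {P M : Subgroup G}
    (hPn : M ≤ Subgroup.normalizer (P : Set G)) :
    M ≤ Subgroup.normalizer ((omegaZP p P : Subgroup G) : Set G) := by
  apply Cfsg.Agent.Lib.Helper53.le_normalizer_of_conj_mem
  rintro m hm a ⟨ha, hac, hap⟩
  refine ⟨(Subgroup.mem_normalizer_iff.mp (hPn hm) a).mp ha, fun b hb => ?_, ?_⟩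
  · have hb' : m⁻¹ * b * m⁻¹⁻¹ ∈ P :=
      (Subgroup.mem_normalizer_iff.mp (hPn (M.inv_mem hm)) b).mp hb
    have h := hac _ hb'
    calc b * (m * a * m⁻¹) = m * ((m⁻¹ * b * m⁻¹⁻¹) * a) * m⁻¹ := by group
      _ = m * (a * (m⁻¹ * b * m⁻¹⁻¹)) * m⁻¹ := by rw [h]
      _ = m * a * m⁻¹ * b := by group
  · rw [conj_pow, hap, mul_one, mul_inv_cancel]

/-- Package PKG1 of the S1440 project. -/
theorem pkG1 : PKG1.{u} := by
  intro G _ _ hG M hM p x D hL P Q hd hPn hPna
  haveI : Fact p.Prime := ⟨hL.hp⟩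
  have hp : p.Prime := hL.hp
  have hσM : sigmaCore M ≤ M := Cfsg.Agent.Lib.Helper67.BG.sigmaCore_le M
  have hPM : P ≤ M := hd.hP.trans hσM
  -- (a) `x ∈ P`
  have hxP : x ∈ P := mem_of_dec_of_orderOf hd (hσM.trans hPn) hL.hxσ hL.hxo
  have hxp : x ^ p = 1 := by rw [← hL.hxo]; exact pow_orderOf_eq_one x
  -- (b) `x` is not central in `P`
  have hxnc : ¬ (∀ a ∈ P, a * x = x * a) := by
    intro hc
    have hPD : P ≤ D := by
      refine le_trans ?_ hL.hCD
      intro a ha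
      refine Subgroup.mem_inf.mpr ⟨hPM ha, ?_⟩
      rw [Subgroup.mem_centralizer_iff]
      intro y hy
      rw [Set.mem_singleton_iff] at hy
      rw [hy]
      exact (hc a ha).symm
    have hnil : Group.IsNilpotent ↥P := hd.hPp.isNilpotent
    exact hPna (hL.hab P hPD hnil)
  refine ⟨hxP, hxnc, ?_⟩
  -- the elementary abelian group `A = ⟨x⟩ Ω₁(Z(P))`
  have hZe : IsElementaryAbelian p (omegaZP p P) := omegaZP_isElementaryAbelian p P
  have hAe : IsElementaryAbelian p (Subgroup.zpowers x ⊔ omegaZP p P) := by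
    refine Cfsg.Agent.Lib.Helper10.isElementaryAbelian_sup
      (Cfsg.Agent.Lib.Helper10.isElementaryAbelian_zpowers hxp) hZe ?_
    intro a ha b hb
    exact hb.2.1 a (Subgroup.zpowers_le.mpr hxP ha)
  have hAD : Subgroup.zpowers x ⊔ omegaZP p P ≤ D := by
    refine le_trans (sup_le ?_ ?_) hL.hCD
    · apply Subgroup.zpowers_le.mpr
      refine Subgroup.mem_inf.mpr ⟨hPM hxP, ?_⟩
      rw [Subgroup.mem_centralizer_iff]
      intro y hy
      rw [Set.mem_singleton_iff] at hy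
      rw [hy]
    · intro a ha
      refine Subgroup.mem_inf.mpr ⟨hPM ha.1, ?_⟩
      rw [Subgroup.mem_centralizer_iff]
      intro y hy
      rw [Set.mem_singleton_iff] at hy
      rw [hy]
      exact ha.2.1 x hxP
  have hAcard : Nat.card ↥(Subgroup.zpowers x ⊔ omegaZP p P) ≤ p ^ 2 := hL.hrk p hp _ hAD hAe
  have hxZ : x ∉ omegaZP p P := fun h => hxnc (fun a ha => h.2.1 a ha)
  have hZlt : Nat.card ↥(omegaZP p P) < Nat.card ↥(Subgroup.zpowers x ⊔ omegaZP p P) := by
    by_contra hcon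
    have heq : omegaZP p P = Subgroup.zpowers x ⊔ omegaZP p P :=
      Subgroup.eq_of_le_of_card_ge le_sup_right (not_lt.mp hcon)
    apply hxZ
    rw [heq]
    exact le_sup_left (a := Subgroup.zpowers x) (Subgroup.mem_zpowers x)
  -- a central element of order `p` in `P'`
  have hder_le : ⁅P, P⁆ ≤ P :=
    Subgroup.commutator_le.mpr (fun a ha b hb =>
      P.mul_mem (P.mul_mem (P.mul_mem ha hb) (P.inv_mem ha)) (P.inv_mem hb))
  have hder_n : P ≤ Subgroup.normalizer ((⁅P, P⁆ : Subgroup G) : Set G) := by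
    apply Cfsg.Agent.Lib.Helper53.le_normalizer_of_conj_mem
    intro g hg w hw
    have hmap : (⁅P, P⁆ : Subgroup G).map (MulAut.conj g).toMonoidHom = ⁅P, P⁆ := by
      rw [Subgroup.map_commutator]
      have hPg : P.map (MulAut.conj g).toMonoidHom = P := by
        apply le_antisymm
        · rintro _ ⟨a, ha, rfl⟩
          exact P.mul_mem (P.mul_mem hg ha) (P.inv_mem hg)
        · intro a ha
          refine ⟨g⁻¹ * a * g, P.mul_mem (P.mul_mem (P.inv_mem hg) ha) hg, ?_⟩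
          simp [MulAut.conj_apply, mul_assoc]
      rw [hPg]
    have : g * w * g⁻¹ ∈ (⁅P, P⁆ : Subgroup G).map (MulAut.conj g).toMonoidHom :=
      ⟨w, hw, by simp [MulAut.conj_apply]⟩
    rwa [hmap] at this
  have hder_ne : (⁅P, P⁆ : Subgroup G) ≠ ⊥ := by
    intro hbot
    apply hPna
    rw [isMulCommutative_iff_of_setLike]
    intro a ha b hb
    have h1 : P ≤ Subgroup.centralizer (P : Set G) :=
      Subgroup.commutator_eq_bot_iff_le_centralizer.mp hbot
    exact (Subgroup.mem_centralizer_iff.mp (h1 hb) a ha)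
  obtain ⟨w, hwd, hw1, hwc⟩ :=
    Cfsg.Agent.Lib.Helper53.exists_mem_center_of_normal_subgroup hd.hPp hder_le hder_n hder_ne
  have hwP : w ∈ P := hder_le hwd
  -- order of `w` is a positive power of `p`
  have hpw : p ∣ orderOf w := by
    obtain ⟨k, hk⟩ := hd.hPp ⟨w, hwP⟩
    have hk' : w ^ p ^ k = 1 := by
      have := congrArg Subtype.val hk
      simpa using this
    have hdvd : orderOf w ∣ p ^ k := orderOf_dvd_of_pow_eq_one hk'
    obtain ⟨j, -, hj⟩ := (Nat.dvd_prime_pow hp).mp hdvd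
    rcases Nat.eq_zero_or_pos j with h0 | hpos
    · exfalso
      rw [h0, pow_zero, orderOf_eq_one_iff] at hj
      exact hw1 hj
    · rw [hj]
      exact dvd_pow_self p hpos.ne'
  have hw0 : orderOf w ≠ 0 := (orderOf_pos w).ne'
  set z : G := w ^ (orderOf w / p) with hz
  have hzo : orderOf z = p := orderOf_pow_orderOf_div hw0 hpw
  have hzd : z ∈ (⁅P, P⁆ : Subgroup G) := Subgroup.pow_mem _ hwd _
  have hzP : z ∈ P := hder_le hzd
  have hzc : ∀ a ∈ P, a * z = z * a := by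
    intro a ha
    have hcom : Commute a w := hwc a ha
    exact hcom.pow_right _
  have hzp : z ^ p = 1 := by rw [← hzo]; exact pow_orderOf_eq_one z
  have hzZ : z ∈ omegaZP p P := ⟨hzP, hzc, hzp⟩
  have hzle : Subgroup.zpowers z ≤ omegaZP p P := Subgroup.zpowers_le.mpr hzZ
  -- `Ω₁(Z(P)) = ⟨z⟩`
  have hZeq : Subgroup.zpowers z = omegaZP p P := by
    apply Subgroup.eq_of_le_of_card_ge hzle
    rw [Nat.card_zpowers, hzo]
    obtain ⟨k, hk⟩ := IsPGroup.iff_card.mp
      (Cfsg.Agent.Lib.Helper10.IsElementaryAbelian.isPGroup hZe)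
    rw [hk]
    have hlt : p ^ k < p ^ 2 := by
      rw [← hk]
      exact lt_of_lt_of_le hZlt hAcard
    have hk2 : k < 2 := (Nat.pow_lt_pow_iff_right hp.one_lt).mp hlt
    calc p ^ k ≤ p ^ 1 := Nat.pow_le_pow_right hp.pos (by omega)
      _ = p := pow_one p
  refine ⟨z, hzP, hzo, hzd, hzc, ?_, ?_⟩
  · rw [hZeq]
    exact hxZ
  · rw [hZeq]
    exact le_normalizer_omegaZP hPn

end Cfsg.Agent.Lib.Helper29.BG40
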